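import Mathlib

/-!
Fixed spaces in primitive solvable linear groups.
-/

namespace CfsgLib.PrimitiveLinear

open scoped commutatorElement

variable {F V G : Type*} [Field F] [AddCommGroup V] [Module F V] [FiniteDimensional F V] [Group G]
  (ρ : G →* Module.End F V)

theorem apply_apply_inv (g : G) (v : V) : ρ g (ρ g⁻¹ v) = v := by
  rw [← Module.End.mul_apply, ← map_mul, mul_inv_cancel, map_one, Module.End.one_apply]

theorem apply_inv_apply (g : G) (v : V) : ρ g⁻¹ (ρ g v) = v := by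
  rw [← Module.End.mul_apply, ← map_mul, inv_mul_cancel, map_one, Module.End.one_apply]

theorem rho_injective (g : G) : Function.Injective (ρ g) :=
  Function.LeftInverse.injective (apply_inv_apply ρ g)

/-- No system of imprimitivity. -/
def NoSystem : Prop :=
  ∀ (t m : ℕ) (D : Fin t → Submodule F V), 2 ≤ t → 0 < m → (∀ i, Module.finrank F (D i) = m) →
    iSupIndep D → iSup D = ⊤ → ¬ ∀ g : G, ∃ σ : Equiv.Perm (Fin t), ∀ i, (D i).map (ρ g) = D (σ i)

/-- A minimal invariant subspace for `A`. -/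
def IsMin (A : Subgroup G) (U : Submodule F V) : Prop :=
  U ≠ ⊥ ∧ (∀ a ∈ A, ∀ v ∈ U, ρ a v ∈ U) ∧
    ∀ U' ≤ U, (∀ a ∈ A, ∀ v ∈ U', ρ a v ∈ U') → U' = ⊥ ∨ U' = U

/-- Elements of `A` acting trivially on `U`. -/
def kerOn (A : Subgroup G) (U : Submodule F V) : Set G := {a | a ∈ A ∧ ∀ v ∈ U, ρ a v = v}

/-- Homogeneous part attached to a kernel. -/
def comp (A : Subgroup G) (K : Set G) : Submodule F V :=
  ⨆ (U : Submodule F V) (_ : IsMin ρ A U ∧ kerOn ρ A U = K), U

variable {ρ}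

theorem comp_le_fixed {A : Subgroup G} {K : Set G} {a : G} (ha : a ∈ K) :
    comp ρ A K ≤ LinearMap.ker (ρ a - 1) := by
  refine iSup₂_le fun U hU v hv => ?_
  have : a ∈ kerOn ρ A U := hU.2 ▸ ha
  simp [LinearMap.mem_ker, this.2 v hv]

theorem comp_invariant {A : Subgroup G} {K : Set G} {a : G} (ha : a ∈ A) :
    (comp ρ A K).map (ρ a) ≤ comp ρ A K := by
  simp only [comp, Submodule.map_iSup]
  refine iSup₂_mono fun U hU => ?_
  rintro _ ⟨v, hv, rfl⟩
  exact hU.1.2.1 a ha v hv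

theorem exists_min {A : Subgroup G} {W : Submodule F V} (hW : W ≠ ⊥)
    (hinv : ∀ a ∈ A, ∀ v ∈ W, ρ a v ∈ W) : ∃ U ≤ W, IsMin ρ A U := by
  obtain ⟨U, ⟨hU1, hU2, hU3⟩, hUmin⟩ := WellFounded.has_min (wellFounded_lt (α := Submodule F V))
    {U : Submodule F V | U ≠ ⊥ ∧ U ≤ W ∧ ∀ a ∈ A, ∀ v ∈ U, ρ a v ∈ U} ⟨W, hW, le_rfl, hinv⟩
  refine ⟨U, hU2, hU1, hU3, fun U' hle hinv' => or_iff_not_imp_left.mpr fun hne => ?_⟩
  exact eq_of_le_of_not_lt hle (hUmin U' ⟨hne, hle.trans hU2, hinv'⟩)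

theorem comp_sub_injective {A : Subgroup G} (hA : IsMulCommutative A) {K : Set G} {a : G}
    (ha : a ∈ A) (haK : a ∉ K) {x : V} (hx : x ∈ comp ρ A K) (h : ρ a x = x) : x = 0 := by
  set f : Module.End F V := ρ a - 1 with hf
  have hmap : (comp ρ A K).map f = comp ρ A K := by
    simp only [comp, Submodule.map_iSup]
    refine iSup_congr fun U => iSup_congr fun hU => ?_
    have hker : LinearMap.ker f ⊓ U = ⊥ := by
      refine (hU.1.2.2 _ inf_le_right fun b hb v hv => ?_).resolve_right fun he => ?_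
      · refine ⟨?_, hU.1.2.1 b hb v hv.2⟩
        have hcomm : a * b = b * a :=
          congrArg Subtype.val (hA.is_comm.comm (⟨a, ha⟩ : A) ⟨b, hb⟩)
        have h1 : ρ a v = v := by simpa [hf, sub_eq_zero] using hv.1
        show f (ρ b v) = 0
        rw [hf, LinearMap.sub_apply, Module.End.one_apply, ← Module.End.mul_apply, ← map_mul, hcomm,
          map_mul, Module.End.mul_apply, h1, sub_self]
      · apply haK
        rw [← hU.2]
        refine ⟨ha, fun v hv => ?_⟩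
        have : v ∈ LinearMap.ker f ⊓ U := he.symm ▸ hv
        simpa [hf, sub_eq_zero] using this.1
    have hle : U.map f ≤ U := by
      rintro _ ⟨v, hv, rfl⟩
      exact U.sub_mem (hU.1.2.1 a ha v hv) hv
    refine Submodule.eq_of_le_of_finrank_eq hle ?_
    have h1 := LinearMap.finrank_range_add_finrank_ker (f.domRestrict U)
    have h2 : LinearMap.ker (f.domRestrict U) = ⊥ := by
      rw [LinearMap.ker_eq_bot']
      intro v hv
      have : (v : V) ∈ LinearMap.ker f ⊓ U := ⟨hv, v.2⟩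
      rw [hker, Submodule.mem_bot] at this
      exact Subtype.ext this
    rw [h2, finrank_bot, add_zero, LinearMap.range_domRestrict] at h1
    exact h1
  have hinj : ∀ y ∈ comp ρ A K, f y = 0 → y = 0 := by
    intro y hy hy0
    let g : comp ρ A K →ₗ[F] comp ρ A K :=
      f.restrict fun v hv => hmap.le ⟨v, hv, rfl⟩
    have hsurj : Function.Surjective g := by
      rintro ⟨w, hw⟩
      obtain ⟨v, hv, hvw⟩ := hmap.ge hw
      exact ⟨⟨v, hv⟩, Subtype.ext hvw⟩
    exact congrArg Subtype.val ((LinearMap.injective_iff_surjective.mpr hsurj)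
      (a₁ := ⟨y, hy⟩) (a₂ := 0) (by rw [map_zero]; exact Subtype.ext hy0))
  exact hinj x hx (by simp [hf, h])

theorem comp_map {A : Subgroup G} [A.Normal] (g : G) (K : Set G) :
    (comp ρ A K).map (ρ g) ≤ comp ρ A ((fun x => g * x * g⁻¹) '' K) := by
  simp only [comp, Submodule.map_iSup]
  refine iSup₂_le fun U hU => le_iSup₂_of_le (U.map (ρ g)) ⟨⟨?_, ?_, ?_⟩, ?_⟩ le_rfl
  · intro h
    apply hU.1.1
    rw [Submodule.eq_bot_iff] at h ⊢
    exact fun v hv => rho_injective ρ g ((h _ ⟨v, hv, rfl⟩).trans (map_zero _).symm)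
  · rintro a ha _ ⟨v, hv, rfl⟩
    refine ⟨ρ (g⁻¹ * a * g) v, hU.1.2.1 _ (by simpa using ‹A.Normal›.conj_mem a ha g⁻¹) v hv, ?_⟩
    rw [← Module.End.mul_apply, ← Module.End.mul_apply, ← map_mul, ← map_mul]
    simp [mul_assoc]
  · intro U' hle hinv
    have hback : U'.map (ρ g⁻¹) ≤ U := by
      rintro _ ⟨w, hw, rfl⟩
      obtain ⟨v, hv, rfl⟩ := hle hw
      rwa [apply_inv_apply]
    rcases hU.1.2.2 _ hback (by
      rintro a ha _ ⟨w, hw, rfl⟩
      refine ⟨ρ (g * a * g⁻¹) w, hinv _ (‹A.Normal›.conj_mem a ha g) w hw, ?_⟩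
      rw [← Module.End.mul_apply, ← Module.End.mul_apply, ← map_mul, ← map_mul]
      simp [mul_assoc]) with h | h
    · left
      rw [Submodule.eq_bot_iff] at h ⊢
      intro w hw
      exact rho_injective ρ g⁻¹ ((h _ ⟨w, hw, rfl⟩).trans (map_zero _).symm)
    · right
      refine le_antisymm hle ?_
      rintro _ ⟨v, hv, rfl⟩
      obtain ⟨w, hw, rfl⟩ := h.ge hv
      rwa [apply_apply_inv]
  · rw [← hU.2]
    ext a
    constructor
    · rintro ⟨ha, hfix⟩
      refine ⟨g⁻¹ * a * g, ⟨by simpa using ‹A.Normal›.conj_mem a ha g⁻¹, fun v hv => ?_⟩, by simp [mul_assoc]⟩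
      rw [map_mul, map_mul, Module.End.mul_apply, Module.End.mul_apply, hfix _ ⟨v, hv, rfl⟩,
        apply_inv_apply]
    · rintro ⟨b, ⟨hb, hfix⟩, rfl⟩
      refine ⟨‹A.Normal›.conj_mem b hb g, ?_⟩
      rintro _ ⟨v, hv, rfl⟩
      rw [map_mul, map_mul, Module.End.mul_apply, Module.End.mul_apply, apply_inv_apply, hfix v hv]

theorem fixed_point_free [Finite G] (hinj : Function.Injective ρ)
    (hirr : ∀ W : Submodule F V, (∀ g, ∀ v ∈ W, ρ g v ∈ W) → W = ⊥ ∨ W = ⊤) (hprim : NoSystem ρ)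
    {A : Subgroup G} [A.Normal] (hA : IsMulCommutative A) {a : G} (ha : a ∈ A) (ha1 : a ≠ 1) {v : V}
    (hv : ρ a v = v) : v = 0 := by
  classical
  by_contra hv0
  have hW : LinearMap.ker (ρ a - 1) ≠ ⊥ := fun h => hv0 (by
    have : v ∈ LinearMap.ker (ρ a - 1) := by simp [LinearMap.mem_ker, hv]
    rwa [h, Submodule.mem_bot] at this)
  obtain ⟨U, hUW, hU⟩ := exists_min (ρ := ρ) (A := A) hW (fun b hb w hw => by
    have hcomm : a * b = b * a := congrArg Subtype.val (hA.is_comm.comm (⟨a, ha⟩ : A) ⟨b, hb⟩)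
    have h1 : ρ a w = w := by simpa [sub_eq_zero] using hw
    rw [LinearMap.mem_ker, LinearMap.sub_apply, Module.End.one_apply, ← Module.End.mul_apply,
      ← map_mul, hcomm, map_mul, Module.End.mul_apply, h1, sub_self])
  set K₀ := kerOn ρ A U with hK₀
  have haK : a ∈ K₀ := ⟨ha, fun w hw => by simpa [sub_eq_zero] using hUW hw⟩
  let c : G → Set G → Set G := fun g K => (fun x => g * x * g⁻¹) '' K
  have hcc : ∀ g h K, c g (c h K) = c (g * h) K := fun g h K => by
    simp only [c, Set.image_image]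
    congr 1
    funext x
    simp [mul_assoc]
  have hc1 : ∀ K, c 1 K = K := fun K => by simp [c]
  let O : Finset (Set G) := (Set.range fun g => c g K₀).toFinite.toFinset
  have hO : ∀ K, K ∈ O ↔ ∃ g, c g K₀ = K := fun K => by simp [O]
  have hsub : ∀ K ∈ O, K ⊆ A := by
    intro K hK
    obtain ⟨g, rfl⟩ := (hO K).mp hK
    rintro _ ⟨x, hx, rfl⟩
    exact ‹A.Normal›.conj_mem x hx.1 g
  have hcard : ∀ K ∈ O, K.ncard = K₀.ncard := by
    intro K hK
    obtain ⟨g, rfl⟩ := (hO K).mp hK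
    exact Set.ncard_image_of_injective _ (fun x y h => mul_left_cancel (mul_right_cancel h))
  have hdisj : ∀ s : Finset (Set G), s ⊆ O → ∀ K ∈ O, K ∉ s → ∀ x ∈ comp ρ A K,
      x ∈ s.sup (comp ρ A) → x = 0 := by
    intro s
    induction s using Finset.induction_on with
    | empty => intro _ K _ _ x _ hx; simpa using hx
    | insert L s hL ih =>
      intro hs K hK hKs x hx hxs
      rw [Finset.sup_insert, Submodule.mem_sup] at hxs
      obtain ⟨u, hu, w, hw, rfl⟩ := hxs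
      have hLO : L ∈ O := hs (Finset.mem_insert_self _ _)
      have hne : L ≠ K := fun h => hKs (h ▸ Finset.mem_insert_self _ _)
      obtain ⟨b, hbL, hbK⟩ : ∃ b ∈ L, b ∉ K := by
        by_contra hcon
        push Not at hcon
        exact hne (Set.eq_of_subset_of_ncard_le hcon ((hcard K hK).trans (hcard L hLO).symm).le)
      have hbA : b ∈ A := hsub L hLO hbL
      have hfu : ρ b u = u := by simpa [sub_eq_zero] using comp_le_fixed hbL hu
      have hinvs : ∀ w ∈ s.sup (comp ρ A), ρ b w ∈ s.sup (comp ρ A) := fun w hw => by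
        have : (s.sup (comp ρ A)).map (ρ b) ≤ s.sup (comp ρ A) := by
          rw [Finset.sup_eq_iSup, Submodule.map_iSup]
          refine iSup_mono fun L' => ?_
          rw [Submodule.map_iSup]
          exact iSup_mono fun _ => comp_invariant hbA
        exact this ⟨w, hw, rfl⟩
      have h1 : ρ b (u + w) - (u + w) = ρ b w - w := by rw [map_add, hfu]; abel
      have h2 : ρ b (u + w) - (u + w) = 0 :=
        ih (fun y hy => hs (Finset.mem_insert_of_mem hy)) K hK (fun h => hKs (Finset.mem_insert_of_mem h))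
          _ (Submodule.sub_mem _ (comp_invariant hbA ⟨_, hx, rfl⟩) hx)
          (h1 ▸ Submodule.sub_mem _ (hinvs w hw) hw)
      exact comp_sub_injective hA hbA hbK hx (sub_eq_zero.mp h2)
  let e := O.equivFin.symm
  let D : Fin O.card → Submodule F V := fun i => comp ρ A (e i : Set G)
  have hind : iSupIndep D := by
    rw [iSupIndep_def]
    intro i
    rw [Submodule.disjoint_def]
    intro x hx hx'
    refine hdisj (O.erase (e i : Set G)) (Finset.erase_subset _ _) _ (e i).2 (Finset.notMem_erase _ _) x hx ?_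
    refine (iSup₂_le fun j hj => Finset.le_sup (f := comp ρ A) (Finset.mem_erase.mpr
      ⟨fun h => hj (e.injective (Subtype.ext h)), (e j).2⟩)) hx'
  have hmapc : ∀ g K, (comp ρ A K).map (ρ g) = comp ρ A (c g K) := by
    intro g K
    refine le_antisymm (comp_map g K) fun w hw => ?_
    have h := comp_map (ρ := ρ) (A := A) g⁻¹ (c g K) ⟨w, hw, rfl⟩
    change ρ g⁻¹ w ∈ comp ρ A (c g⁻¹ (c g K)) at h
    rw [hcc, inv_mul_cancel, hc1] at h
    exact ⟨_, h, apply_apply_inv ρ g w⟩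
  have hperm : ∀ g : G, ∃ σ : Equiv.Perm (Fin O.card), ∀ i, (D i).map (ρ g) = D (σ i) := by
    intro g
    let π : O ≃ O :=
      { toFun := fun K => ⟨c g K, by
          obtain ⟨h, hh⟩ := (hO _).mp K.2
          exact (hO _).mpr ⟨g * h, by rw [← hcc, hh]⟩⟩
        invFun := fun K => ⟨c g⁻¹ K, by
          obtain ⟨h, hh⟩ := (hO _).mp K.2
          exact (hO _).mpr ⟨g⁻¹ * h, by rw [← hcc, hh]⟩⟩
        left_inv := fun K => Subtype.ext (by simp [hcc, hc1])
        right_inv := fun K => Subtype.ext (by simp [hcc, hc1]) }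
    refine ⟨(e.trans π).trans e.symm, fun i => ?_⟩
    simp only [D, Equiv.trans_apply, Equiv.apply_symm_apply]
    exact hmapc g _
  have hK₀O : K₀ ∈ O := (hO _).mpr ⟨1, hc1 _⟩
  have hle : U ≤ comp ρ A K₀ := le_iSup₂_of_le U ⟨hU, rfl⟩ le_rfl
  have htop : iSup D = ⊤ := by
    refine (hirr _ fun g w hw => ?_).resolve_left fun hb => hU.1 ?_
    · obtain ⟨σ, hσ⟩ := hperm g
      have : (iSup D).map (ρ g) ≤ iSup D := by
        rw [Submodule.map_iSup]
        exact iSup_le fun i => (hσ i).le.trans (le_iSup D _)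
      exact this ⟨w, hw, rfl⟩
    · rw [eq_bot_iff, ← hb]
      refine hle.trans (le_iSup_of_le (e.symm ⟨K₀, hK₀O⟩) ?_)
      simp [D]
  have hdim : ∀ i, Module.finrank F (D i) = Module.finrank F (comp ρ A K₀) := by
    intro i
    obtain ⟨g, hg⟩ := (hO _).mp (e i).2
    show Module.finrank F (comp ρ A (e i : Set G)) = _
    rw [← hg, ← hmapc]
    exact (LinearEquiv.finrank_eq (Submodule.equivMapOfInjective _ (rho_injective ρ g) _)).symm
  by_cases ht : 2 ≤ O.card
  · refine hprim O.card (Module.finrank F (comp ρ A K₀)) D ht ?_ hdim hind htop hperm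
    rw [Nat.pos_iff_ne_zero, Ne, Submodule.finrank_eq_zero]
    exact fun h => hU.1 (le_bot_iff.mp (h ▸ hle))
  · have hall : ∀ i, (e i : Set G) = K₀ := fun i =>
      Finset.card_le_one.mp (by omega) _ (e i).2 _ hK₀O
    apply ha1
    apply hinj
    rw [map_one]
    ext w
    have : w ∈ LinearMap.ker (ρ a - 1) := by
      refine (iSup_le (a := LinearMap.ker (ρ a - 1)) fun i => ?_ : iSup D ≤ LinearMap.ker (ρ a - 1))
        (htop.ge Submodule.mem_top)
      show comp ρ A (e i : Set G) ≤ _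
      rw [hall i]
      exact comp_le_fixed haK
    simpa [sub_eq_zero] using this

theorem exists_class_two [Finite G] [hsol : Group.IsSolvable G] :
    ∃ E : Subgroup G, E.Normal ∧ (∀ x ∈ E, ∀ y ∈ E, ∀ z ∈ E, Commute ⁅x, y⁆ z) ∧
      Subgroup.centralizer (E : Set G) ≤ E := by
  obtain ⟨E, ⟨hEn, hE2⟩, hmax⟩ := WellFounded.has_min (wellFounded_gt (α := Subgroup G))
    {E : Subgroup G | E.Normal ∧ ∀ x ∈ E, ∀ y ∈ E, ∀ z ∈ E, Commute ⁅x, y⁆ z}
    ⟨⊥, inferInstance, fun x hx y hy z hz => by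
      rw [Subgroup.mem_bot] at hz; subst hz; exact Commute.one_right _⟩
  refine ⟨E, hEn, hE2, ?_⟩
  by_contra hC
  obtain ⟨s, hs_zero, hs_succ⟩ : ∃ s : ℕ → Subgroup G, s 0 = Subgroup.centralizer (E : Set G) ∧
      ∀ k, s (k + 1) = ⁅s k, s k⁆ :=
    ⟨fun k => Nat.rec (Subgroup.centralizer (E : Set G)) (fun _ X => ⁅X, X⁆) k, rfl, fun _ => rfl⟩
  haveI := hEn
  have hsn : ∀ k, (s k).Normal := by
    intro k
    induction k with
    | zero => rw [hs_zero]; infer_instance
    | succ k ih =>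
      rw [hs_succ]
      exact @Subgroup.commutator_normal G _ (s k) (s k) ih ih
  have hsd : ∀ k, s k ≤ derivedSeries G k := by
    intro k
    induction k with
    | zero => exact le_top
    | succ k ih => rw [hs_succ]; exact Subgroup.commutator_mono ih ih
  have hsC : ∀ k, s k ≤ Subgroup.centralizer (E : Set G) := by
    intro k
    induction k with
    | zero => rw [hs_zero]
    | succ k ih =>
      haveI := hsn k
      rw [hs_succ]
      exact (Subgroup.commutator_le_right (s k) (s k)).trans ih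
  obtain ⟨N, hN⟩ := hsol.solvable
  obtain ⟨k, hk, hk'⟩ : ∃ k, ¬ s k ≤ E ∧ s (k + 1) ≤ E := by
    by_contra hcon
    push Not at hcon
    have : ∀ k, ¬ s k ≤ E := fun k => by
      induction k with
      | zero => rwa [hs_zero]
      | succ k ih => exact hcon k ih
    exact this N ((hsd N).trans (hN ▸ bot_le))
  set D := s k
  haveI := hsn k
  haveI := hEn
  have hlt : E < E ⊔ D := left_lt_sup.mpr hk
  suffices h : ∀ x ∈ E ⊔ D, ∀ y ∈ E ⊔ D, ∀ z ∈ E ⊔ D, Commute ⁅x, y⁆ z from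
    hmax (E ⊔ D) ⟨inferInstance, h⟩ hlt
  intro x hx y hy z hz
  rw [← SetLike.mem_coe, Subgroup.normal_mul E D] at hx hy hz
  obtain ⟨e1, he1, d1, hd1, rfl⟩ := hx
  obtain ⟨e2, he2, d2, hd2, rfl⟩ := hy
  obtain ⟨e3, he3, d3, hd3, rfl⟩ := hz
  have hDE : ∀ d ∈ D, ∀ e ∈ E, Commute d e := fun d hd e he =>
    (Subgroup.mem_centralizer_iff.mp (hsC k hd) e he).symm
  have hcE : ⁅e1, e2⁆ ∈ E := E.mul_mem (E.mul_mem (E.mul_mem he1 he2) (E.inv_mem he1)) (E.inv_mem he2)
  have hcD : ⁅d1, d2⁆ ∈ E := hk' (hs_succ k ▸ Subgroup.commutator_mem_commutator hd1 hd2)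
  have hcC : ⁅d1, d2⁆ ∈ Subgroup.centralizer (E : Set G) :=
    hsC (k + 1) (hs_succ k ▸ Subgroup.commutator_mem_commutator hd1 hd2)
  have heq : ⁅e1 * d1, e2 * d2⁆ = ⁅e1, e2⁆ * ⁅d1, d2⁆ := by
    have p1 : Commute d1 e2 := hDE d1 hd1 e2 he2
    have p2 : Commute d2 e1 := hDE d2 hd2 e1 he1
    have p3 : Commute d1 e1 := hDE d1 hd1 e1 he1
    have p4 : Commute d2 e2 := hDE d2 hd2 e2 he2
    calc ⁅e1 * d1, e2 * d2⁆ = e1 * (d1 * e2) * (d2 * d1⁻¹) * e1⁻¹ * (d2⁻¹ * e2⁻¹) := by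
          simp [commutatorElement_def, mul_assoc]
      _ = e1 * (e2 * d1) * (d2 * d1⁻¹) * e1⁻¹ * (d2⁻¹ * e2⁻¹) := by rw [p1.eq]
      _ = e1 * e2 * ((d1 * d2 * d1⁻¹) * e1⁻¹) * (d2⁻¹ * e2⁻¹) := by simp [mul_assoc]
      _ = e1 * e2 * (e1⁻¹ * (d1 * d2 * d1⁻¹)) * (d2⁻¹ * e2⁻¹) := by
          rw [((p3.mul_left p2).mul_left p3.inv_left).inv_right.eq]
      _ = e1 * e2 * e1⁻¹ * ((d1 * d2 * d1⁻¹ * d2⁻¹) * e2⁻¹) := by simp [mul_assoc]
      _ = e1 * e2 * e1⁻¹ * (e2⁻¹ * (d1 * d2 * d1⁻¹ * d2⁻¹)) := by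
          rw [(((p1.mul_left p4).mul_left p1.inv_left).mul_left p4.inv_left).inv_right.eq]
      _ = ⁅e1, e2⁆ * ⁅d1, d2⁆ := by simp [commutatorElement_def, mul_assoc]
  rw [heq]
  exact Commute.mul_left ((hE2 e1 he1 e2 he2 e3 he3).mul_right (hDE d3 hd3 _ hcE).symm)
    (Commute.mul_right (Subgroup.mem_centralizer_iff.mp hcC e3 he3).symm (hDE d3 hd3 _ hcD).symm)

theorem finrank_fixed_le [Finite G] [Group.IsSolvable G] (hinj : Function.Injective ρ)
    (hirr : ∀ W : Submodule F V, (∀ g, ∀ v ∈ W, ρ g v ∈ W) → W = ⊥ ∨ W = ⊤) (hprim : NoSystem ρ)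
    {g : G} (hg : g ≠ 1) :
    4 * Module.finrank F (LinearMap.ker (ρ g - 1)) ≤ 3 * Module.finrank F V := by
  obtain ⟨E, hEn, hE2, hC⟩ := exists_class_two (G := G)
  haveI := hEn
  set Z := E ⊓ Subgroup.centralizer (E : Set G) with hZ
  have hZab : IsMulCommutative Z :=
    ⟨⟨fun x y => Subtype.ext (Subgroup.mem_centralizer_iff.mp y.2.2 x x.2.1)⟩⟩
  set n := Module.finrank F V
  let fx : G → Submodule F V := fun x => LinearMap.ker (ρ x - 1)
  have hfx : ∀ x v, v ∈ fx x ↔ ρ x v = v := fun x v => by simp [fx, sub_eq_zero]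
  have hzero : ∀ z ∈ Z, z ≠ 1 → Module.finrank F (fx z) = 0 := by
    intro z hz hz1
    rw [Submodule.finrank_eq_zero, Submodule.eq_bot_iff]
    exact fun v hv => fixed_point_free hinj hirr hprim hZab hz hz1 ((hfx z v).mp hv)
  have hstep : ∀ x y : G, 2 * Module.finrank F (fx x) ≤ n + Module.finrank F (fx ⁅x, y⁆) := by
    intro x y
    have hconj : fx (y * x * y⁻¹) = (fx x).map (ρ y) := by
      ext v
      rw [hfx]
      constructor
      · intro h
        refine ⟨ρ y⁻¹ v, (hfx _ _).mpr ?_, apply_apply_inv ρ y v⟩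
        apply rho_injective ρ y
        rw [apply_apply_inv]
        rw [map_mul, map_mul, Module.End.mul_apply, Module.End.mul_apply] at h
        exact h
      · rintro ⟨w, hw, rfl⟩
        rw [map_mul, map_mul, Module.End.mul_apply, Module.End.mul_apply, apply_inv_apply,
          (hfx x w).mp hw]
    have hle : fx x ⊓ fx (y * x * y⁻¹) ≤ fx ⁅x, y⁆ := by
      rintro v ⟨h1, h2⟩
      rw [hfx]
      have e : ⁅x, y⁆ = x * (y * x * y⁻¹)⁻¹ := by simp [commutatorElement_def, mul_assoc]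
      rw [e, map_mul, Module.End.mul_apply]
      have h3 : ρ (y * x * y⁻¹)⁻¹ v = v := by
        conv_lhs => rw [← (hfx _ _).mp h2]
        exact apply_inv_apply ρ _ v
      rw [h3, (hfx _ _).mp h1]
    have h1 := Submodule.finrank_sup_add_finrank_inf_eq (fx x) (fx (y * x * y⁻¹))
    have h2 := Submodule.finrank_mono hle
    have h3 := Submodule.finrank_le (fx x ⊔ fx (y * x * y⁻¹))
    have h4 : Module.finrank F (fx (y * x * y⁻¹)) = Module.finrank F (fx x) := by
      rw [hconj]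
      exact (LinearEquiv.finrank_eq (Submodule.equivMapOfInjective _ (rho_injective ρ y) _)).symm
    omega
  show 4 * Module.finrank F (fx g) ≤ 3 * n
  by_cases hgC : g ∈ Subgroup.centralizer (E : Set G)
  · rw [hzero g ⟨hC hgC, hgC⟩ hg]
    simp
  · rw [Subgroup.mem_centralizer_iff] at hgC
    push Not at hgC
    obtain ⟨y, hy, hyg⟩ := hgC
    have hc1 : ⁅g, y⁆ ≠ 1 := fun h => hyg (commutatorElement_eq_one_iff_commute.mp h).symm
    have hc1E : ⁅g, y⁆ ∈ E := E.mul_mem (hEn.conj_mem y hy g) (E.inv_mem hy)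
    have s1 := hstep g y
    by_cases hcC : ⁅g, y⁆ ∈ Subgroup.centralizer (E : Set G)
    · rw [hzero _ ⟨hc1E, hcC⟩ hc1] at s1
      omega
    · rw [Subgroup.mem_centralizer_iff] at hcC
      push Not at hcC
      obtain ⟨e, he, hec⟩ := hcC
      have hc2 : ⁅⁅g, y⁆, e⁆ ≠ 1 := fun h => hec (commutatorElement_eq_one_iff_commute.mp h).symm
      have hc2E : ⁅⁅g, y⁆, e⁆ ∈ E := E.mul_mem (hEn.conj_mem e he _) (E.inv_mem he)
      have hc2C : ⁅⁅g, y⁆, e⁆ ∈ Subgroup.centralizer (E : Set G) :=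
        Subgroup.mem_centralizer_iff.mpr fun z hz => (hE2 _ hc1E e he z hz).eq.symm
      have s2 := hstep ⁅g, y⁆ e
      rw [hzero _ ⟨hc2E, hc2C⟩ hc2] at s2
      omega

end CfsgLib.PrimitiveLinear
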